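import Mathlib
import Cfsg.Prelude.Def_OddOrderLocal

set_option autoImplicit false

namespace Cfsg.Agent.Helper14.HallA

theorem fact_pow23 (x y : ℕ) : (2 ^ x * 3 ^ y).factorization 2 = x ∧
    (2 ^ x * 3 ^ y).factorization 3 = y := by
  have h2 : (2 ^ x : ℕ) ≠ 0 := by positivity
  have h3 : (3 ^ y : ℕ) ≠ 0 := by positivity
  constructor
  · rw [Nat.factorization_mul h2 h3, Finsupp.add_apply, Nat.Prime.factorization_pow Nat.prime_two,
      Nat.Prime.factorization_pow Nat.prime_three]
    simp
  · rw [Nat.factorization_mul h2 h3, Finsupp.add_apply, Nat.Prime.factorization_pow Nat.prime_two,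
      Nat.Prime.factorization_pow Nat.prime_three]
    simp

/-- a number all of whose prime divisors are 2 or 3. -/
theorem eq_pow23 (a : ℕ) (ha : a ≠ 0) (h : ∀ r : ℕ, r.Prime → r ∣ a → r = 2 ∨ r = 3) :
    a = 2 ^ a.factorization 2 * 3 ^ a.factorization 3 := by
  apply Nat.eq_of_factorization_eq ha (by positivity)
  intro r
  by_cases hr : r.Prime
  · by_cases hra : r ∣ a
    · rcases h r hr hra with rfl | rfl
      · exact (fact_pow23 _ _).1.symm
      · exact (fact_pow23 _ _).2.symm
    · rw [Nat.factorization_eq_zero_of_not_dvd hra]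
      symm
      apply Nat.factorization_eq_zero_of_not_dvd
      intro hd
      have h2 : (2 ^ a.factorization 2 : ℕ) ≠ 0 := by positivity
      rcases (Nat.Prime.dvd_mul hr).mp hd with h1 | h1
      · have := (Nat.prime_dvd_prime_iff_eq hr Nat.prime_two).mp (hr.dvd_of_dvd_pow h1)
        subst this
        by_cases h0 : a.factorization 2 = 0
        · rw [h0, pow_zero] at h1
          exact hr.one_lt.ne' (Nat.dvd_one.mp h1)
        · exact hra (Nat.dvd_of_factorization_pos h0)
      · have := (Nat.prime_dvd_prime_iff_eq hr Nat.prime_three).mp (hr.dvd_of_dvd_pow h1)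
        subst this
        by_cases h0 : a.factorization 3 = 0
        · rw [h0, pow_zero] at h1
          exact hr.one_lt.ne' (Nat.dvd_one.mp h1)
        · exact hra (Nat.dvd_of_factorization_pos h0)
  · rw [Nat.factorization_eq_zero_of_not_prime _ hr, Nat.factorization_eq_zero_of_not_prime _ hr]

/-- Hall `{2,3}`-subgroups are characterised by their order. -/
theorem hall_iff {G : Type*} [Group G] [Finite G] (H : Subgroup G) :
    Cfsg.IsPiHall ({2, 3} : Set ℕ) H ↔
      Nat.card H = 2 ^ (Nat.card G).factorization 2 * 3 ^ (Nat.card G).factorization 3 := by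
  have hmul := Subgroup.card_mul_index H
  have hH0 : Nat.card H ≠ 0 := Nat.card_pos.ne'
  have hi0 : H.index ≠ 0 := Subgroup.index_ne_zero_of_finite
  have hf : ∀ r : ℕ, (Nat.card G).factorization r =
      (Nat.card H).factorization r + H.index.factorization r := by
    intro r
    rw [← hmul, Nat.factorization_mul hH0 hi0, Finsupp.add_apply]
  constructor
  · rintro ⟨h1, h2⟩
    have e := eq_pow23 (Nat.card H) hH0 (by
      intro r hr hd
      have := h1 r hr hd
      simpa using this)
    have i2 : H.index.factorization 2 = 0 :=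
      Nat.factorization_eq_zero_of_not_dvd (h2 2 Nat.prime_two (by simp))
    have i3 : H.index.factorization 3 = 0 :=
      Nat.factorization_eq_zero_of_not_dvd (h2 3 Nat.prime_three (by simp))
    rw [hf 2, hf 3, i2, i3, add_zero, add_zero]
    exact e
  · intro h
    obtain ⟨f2, f3⟩ := fact_pow23 ((Nat.card G).factorization 2) ((Nat.card G).factorization 3)
    rw [← h] at f2 f3
    constructor
    · intro r hr hd
      rw [h] at hd
      rcases (Nat.Prime.dvd_mul hr).mp hd with h1 | h1
      · have := (Nat.prime_dvd_prime_iff_eq hr Nat.prime_two).mp (hr.dvd_of_dvd_pow h1)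
        simp [this]
      · have := (Nat.prime_dvd_prime_iff_eq hr Nat.prime_three).mp (hr.dvd_of_dvd_pow h1)
        simp [this]
    · intro r hr hmem hd
      have hr23 : r = 2 ∨ r = 3 := by simpa using hmem
      have hpos : 0 < H.index.factorization r :=
        Nat.Prime.factorization_pos_of_dvd hr hi0 hd
      rcases hr23 with rfl | rfl
      · have := hf 2
        omega
      · have := hf 3
        omega

end Cfsg.Agent.Helper14.HallA
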