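import Mathlib
import Cfsg.Agent.Helper14.HallA

set_option autoImplicit false

namespace Cfsg.Agent.Helper14.HallB

open Cfsg.Agent.Helper14.HallA

theorem sq_sub_ne (q : ℕ) (hq : 2 ≤ q) : q ^ 2 - 1 ≠ 0 := by
  have : 2 ^ 2 ≤ q ^ 2 := Nat.pow_le_pow_left hq 2
  omega

theorem arith1 (q N : ℕ) (h2 : ¬ 2 ∣ q) (h3 : ¬ 3 ∣ q) (hq : 2 ≤ q)
    (hN : N * 2 = q * (q ^ 2 - 1)) :
    2 * (2 ^ N.factorization 2 * 3 ^ N.factorization 3) =
      2 ^ (q ^ 2 - 1).factorization 2 * 3 ^ (q ^ 2 - 1).factorization 3 := by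
  have hq0 : q ≠ 0 := by omega
  have hq1 : q ^ 2 - 1 ≠ 0 := sq_sub_ne q hq
  have hN0 : N ≠ 0 := by
    rintro rfl
    rw [zero_mul] at hN
    exact mul_ne_zero hq0 hq1 hN.symm
  have e := congrArg Nat.factorization hN
  rw [Nat.factorization_mul hN0 (by norm_num), Nat.factorization_mul hq0 hq1] at e
  have e2 := DFunLike.congr_fun e 2
  have e3 := DFunLike.congr_fun e 3
  simp only [Finsupp.add_apply] at e2 e3
  rw [Nat.factorization_eq_zero_of_not_dvd h2] at e2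
  rw [Nat.factorization_eq_zero_of_not_dvd h3] at e3
  have f22 : (2 : ℕ).factorization 2 = 1 := Nat.Prime.factorization_self Nat.prime_two
  have f23 : (2 : ℕ).factorization 3 = 0 := Nat.factorization_eq_zero_of_not_dvd (by norm_num)
  rw [f22, zero_add] at e2
  rw [f23, zero_add, add_zero] at e3
  rw [← e2, ← e3]
  ring

theorem arith2 (q : ℕ) (h2 : ¬ 2 ∣ q) (h3 : ¬ 3 ∣ q) (hq : 2 ≤ q) :
    24 ∣ 2 ^ (q ^ 2 - 1).factorization 2 * 3 ^ (q ^ 2 - 1).factorization 3 := by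
  have hq1 : q ^ 2 - 1 ≠ 0 := sq_sub_ne q hq
  have d8 : 2 ^ 3 ∣ q ^ 2 - 1 := by
    obtain ⟨k, rfl⟩ : ∃ k, q = 2 * k + 1 := ⟨q / 2, by omega⟩
    have e1 : (2 * k + 1) ^ 2 - 1 = 4 * (k * (k + 1)) := by
      have : (2 * k + 1) ^ 2 = 4 * (k * (k + 1)) + 1 := by ring
      omega
    rw [e1]
    obtain ⟨j, hj⟩ := (Nat.even_mul_succ_self k).two_dvd
    rw [hj]
    exact ⟨j, by ring⟩
  have d3 : 3 ^ 1 ∣ q ^ 2 - 1 := by
    have h12 : q % 3 = 1 ∨ q % 3 = 2 := by omega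
    have hmod : q ^ 2 % 3 = 1 := by
      rcases h12 with h | h <;> simp [pow_two, Nat.mul_mod, h]
    have h1 : 1 ≤ q ^ 2 := Nat.one_le_pow _ _ (by omega)
    omega
  have a2 := (Nat.prime_two.pow_dvd_iff_le_factorization hq1).mp d8
  have a3 := (Nat.prime_three.pow_dvd_iff_le_factorization hq1).mp d3
  have e : (24 : ℕ) = 2 ^ 3 * 3 ^ 1 := by norm_num
  rw [e]
  exact mul_dvd_mul (pow_dvd_pow 2 a2) (pow_dvd_pow 3 a3)

theorem arith3 (a b : ℕ) : ¬ 5 ∣ 2 ^ a * 3 ^ b := by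
  intro h
  have h5 : Nat.Prime 5 := by norm_num
  rcases (Nat.Prime.dvd_mul h5).mp h with h | h
  · have := Nat.Prime.dvd_of_dvd_pow h5 h
    omega
  · have := Nat.Prime.dvd_of_dvd_pow h5 h
    omega

theorem part23 (n a b k : ℕ) (hn : n = 2 ^ a * 3 ^ b * k) (h2 : ¬ 2 ∣ k) (h3 : ¬ 3 ∣ k) :
    2 ^ n.factorization 2 * 3 ^ n.factorization 3 = 2 ^ a * 3 ^ b := by
  have hk : k ≠ 0 := by
    rintro rfl
    exact h2 (dvd_zero 2)
  have h0 : 2 ^ a * 3 ^ b ≠ 0 := by positivity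
  obtain ⟨f2, f3⟩ := fact_pow23 a b
  rw [hn, Nat.factorization_mul h0 hk, Finsupp.add_apply, Finsupp.add_apply, f2, f3,
    Nat.factorization_eq_zero_of_not_dvd h2, Nat.factorization_eq_zero_of_not_dvd h3]
  simp

theorem exists_part23 (n : ℕ) (hn : n ≠ 0) :
    ∃ a b k : ℕ, n = 2 ^ a * 3 ^ b * k ∧ ¬ 2 ∣ k ∧ ¬ 3 ∣ k := by
  obtain ⟨a, n1, h1, rfl⟩ := Nat.exists_eq_pow_mul_and_not_dvd hn 2 (by norm_num)
  have hn1 : n1 ≠ 0 := by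
    rintro rfl
    exact h1 (dvd_zero 2)
  obtain ⟨b, k, h2, rfl⟩ := Nat.exists_eq_pow_mul_and_not_dvd hn1 3 (by norm_num)
  refine ⟨a, b, k, by ring, ?_, h2⟩
  intro h
  exact h1 (dvd_trans h (dvd_mul_left _ _))

theorem arith4 (q m t a b k : ℕ) (hqm : q ^ 2 - 1 = 2 * m * (2 * t)) (ht2 : ¬ 2 ∣ t)
    (ht3 : ¬ 3 ∣ t) (hk : 2 * m = 2 ^ a * 3 ^ b * k) (hk2 : ¬ 2 ∣ k) (hk3 : ¬ 3 ∣ k) :
    2 ^ (q ^ 2 - 1).factorization 2 * 3 ^ (q ^ 2 - 1).factorization 3 = 2 * (2 ^ a * 3 ^ b) := by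
  have e : q ^ 2 - 1 = 2 ^ (a + 1) * 3 ^ b * (k * t) := by
    rw [hqm, hk]
    ring
  rw [part23 _ (a + 1) b (k * t) e]
  · ring
  · intro h
    rcases (Nat.Prime.dvd_mul Nat.prime_two).mp h with h | h
    · exact hk2 h
    · exact ht2 h
  · intro h
    rcases (Nat.Prime.dvd_mul Nat.prime_three).mp h with h | h
    · exact hk3 h
    · exact ht3 h

theorem pow23_eq (x y a b : ℕ) (h : 2 ^ x * 3 ^ y = 2 ^ a * 3 ^ b) : x = a ∧ y = b := by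
  obtain ⟨f2, f3⟩ := fact_pow23 x y
  obtain ⟨g2, g3⟩ := fact_pow23 a b
  rw [h] at f2 f3
  exact ⟨f2.symm.trans g2, f3.symm.trans g3⟩

end Cfsg.Agent.Helper14.HallB
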