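import Mathlib
import Cfsg.Agent.Helper14.HallA
import Cfsg.Agent.Helper14.HallB
import Cfsg.Agent.Helper14.PSLMax
import Cfsg.Agent.Helper14.ClassEq
import Cfsg.Agent.Helper14.SL2T
import Cfsg.Agent.Helper14.TorusE

set_option autoImplicit false

namespace Cfsg.Agent.Helper14.HallC

open Cfsg.Agent.Helper14.Mat2 Cfsg.Agent.Helper14.SL2Odd Cfsg.Agent.Helper14.PSL2
  Cfsg.Agent.Helper14.SL2Conj Cfsg.Agent.Helper14.Torus Cfsg.Agent.Helper14.TorusB
  Cfsg.Agent.Helper14.TorusC Cfsg.Agent.Helper14.TorusD Cfsg.Agent.Helper14.TorusE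
  Cfsg.Agent.Helper14.A4Sub Cfsg.Agent.Helper14.SL2T Cfsg.Agent.Helper14.SL2U
  Cfsg.Agent.Helper14.PSLMax Cfsg.Agent.Helper14.HallA Cfsg.Agent.Helper14.HallB

variable {F : Type*} [Field F]

local notation "SL2" => Matrix.SpecialLinearGroup (Fin 2) F
local notation "M2" => Matrix (Fin 2) (Fin 2) F
local notation "PSL2" => Matrix.ProjectiveSpecialLinearGroup (Fin 2) F

theorem order_twelve [Fintype F] (hodd : Odd (Fintype.card F)) (p : ℕ) [Fact p.Prime]
    [CharP F p] (hp : 5 ≤ p) (g : SL2) (hg : orderOf g = 12) :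
    12 ∣ Fintype.card F - 1 ∨ 12 ∣ Fintype.card F + 1 := by
  have hpp : p.Prime := Fact.out
  have hτ : (g : M2).trace ^ 2 ≠ 4 := by
    intro h
    have h1 := pow_two_mul_char p g h
    have h2 : 12 ∣ 2 * p := by
      rw [← hg]
      exact orderOf_dvd_of_pow_eq_one h1
    have h3 : 2 ∣ p := by omega
    have := (Nat.prime_dvd_prime_iff_eq Nat.prime_two hpp).mp h3
    omega
  have htr : ((g ^ Fintype.card F : SL2) : M2).trace = (g : M2).trace := by
    rw [Matrix.SpecialLinearGroup.coe_pow, FiniteField.trace_pow_card, FiniteField.pow_card]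
  have hc : g ^ Fintype.card F * g = g * g ^ Fintype.card F := pow_mul_comm' g _
  rcases conj_mem_pair hodd g (g ^ Fintype.card F) hτ hc htr with h | h
  · left
    rw [← hg]
    apply orderOf_dvd_of_pow_eq_one
    have hq1 : 1 ≤ Fintype.card F := Fintype.card_pos
    have e : g ^ (Fintype.card F - 1) * g = 1 * g := by
      rw [← pow_succ, Nat.sub_add_cancel hq1, one_mul]
      exact h
    exact mul_right_cancel e
  · right
    rw [← hg]
    apply orderOf_dvd_of_pow_eq_one
    rw [pow_succ, h, inv_mul_cancel]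

theorem exists_order_twelve {K : Type*} [Group K] [Finite K] (z : K)
    (hz : ∀ y : K, y * y = 1 → y = 1 ∨ y = z)
    (B : Subgroup K) (hB : ∀ a ∈ B, ∀ b ∈ B, a * b = b * a) (h12 : 12 ∣ Nat.card B) :
    ∃ g : K, orderOf g = 12 := by
  classical
  have h3 : 3 ∣ Nat.card B := dvd_trans (by norm_num) h12
  have h4 : 2 ^ 2 ∣ Nat.card B := dvd_trans (by norm_num) h12
  haveI : Fact (Nat.Prime 3) := ⟨Nat.prime_three⟩
  haveI : Fact (Nat.Prime 2) := ⟨Nat.prime_two⟩
  obtain ⟨x, hx⟩ := exists_prime_orderOf_dvd_card' 3 h3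
  obtain ⟨Q, hQ⟩ := Sylow.exists_subgroup_card_pow_prime 2 h4
  have hy : ∃ y : Q, ((y : B) : K) ≠ 1 ∧ ((y : B) : K) ≠ z := by
    by_contra hcon
    push Not at hcon
    have hinj : Function.Injective (fun y : Q => decide (((y : B) : K) = 1)) := by
      intro y y' hyy
      simp only [decide_eq_decide] at hyy
      by_cases h1 : ((y : B) : K) = 1
      · have h1' := hyy.mp h1
        apply Subtype.ext
        apply Subtype.ext
        rw [h1, h1']
      · have h1' : ¬ ((y' : B) : K) = 1 := fun h => h1 (hyy.mpr h)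
        apply Subtype.ext
        apply Subtype.ext
        rw [hcon y h1, hcon y' h1']
    have := Nat.card_le_card_of_injective _ hinj
    rw [hQ, Nat.card_eq_fintype_card, Fintype.card_bool] at this
    omega
  obtain ⟨y, hy1, hyz⟩ := hy
  have hoy : orderOf ((y : B) : K) = 4 := by
    have hd : orderOf ((y : B) : K) ∣ 2 ^ 2 := by
      rw [← hQ]
      have := orderOf_dvd_natCard y
      rwa [← Subgroup.orderOf_coe, ← Subgroup.orderOf_coe] at this
    obtain ⟨k, hk, hk2⟩ := (Nat.dvd_prime_pow Nat.prime_two).mp hd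
    interval_cases k
    · exfalso
      apply hy1
      rw [← orderOf_eq_one_iff]
      simpa using hk2
    · exfalso
      have : ((y : B) : K) * ((y : B) : K) = 1 := by
        rw [← pow_two]
        have := pow_orderOf_eq_one ((y : B) : K)
        rwa [hk2] at this
      rcases hz _ this with h | h
      · exact hy1 h
      · exact hyz h
    · simpa using hk2
  have hcomm : Commute ((x : B) : K) ((y : B) : K) := hB _ x.2 _ (y : B).2
  refine ⟨((x : B) : K) * ((y : B) : K), ?_⟩
  rw [hcomm.orderOf_mul_eq_mul_orderOf_of_coprime, Subgroup.orderOf_coe, hx, hoy]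
  rw [Subgroup.orderOf_coe, hx, hoy]
  norm_num

end Cfsg.Agent.Helper14.HallC
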