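import Mathlib
import Cfsg.Agent.Helper14.HallC
import Cfsg.Agent.Helper1.Hall

set_option autoImplicit false

namespace Cfsg.Agent.Helper14.HallD

open Cfsg.Agent.Helper14.Mat2 Cfsg.Agent.Helper14.SL2Odd Cfsg.Agent.Helper14.PSL2
  Cfsg.Agent.Helper14.SL2Conj Cfsg.Agent.Helper14.Torus Cfsg.Agent.Helper14.TorusB
  Cfsg.Agent.Helper14.TorusC Cfsg.Agent.Helper14.TorusD Cfsg.Agent.Helper14.TorusE
  Cfsg.Agent.Helper14.A4Sub Cfsg.Agent.Helper14.SL2T Cfsg.Agent.Helper14.SL2U
  Cfsg.Agent.Helper14.PSLMax Cfsg.Agent.Helper14.HallA Cfsg.Agent.Helper14.HallB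
  Cfsg.Agent.Helper14.HallC

variable {F : Type*} [Field F]

local notation "SL2" => Matrix.SpecialLinearGroup (Fin 2) F
local notation "M2" => Matrix (Fin 2) (Fin 2) F
local notation "PSL2" => Matrix.ProjectiveSpecialLinearGroup (Fin 2) F

theorem solvable_normalizer [Fintype F] (A : SL2) (m : ℕ) (hm0 : m ≠ 0) (hoA : orderOf A = 2 * m)
    (hNc : Nat.card (Subgroup.normalizer ((Subgroup.zpowers A : Subgroup SL2) : Set SL2)) = 4 * m) :
    Group.IsSolvable (Subgroup.normalizer ((Subgroup.zpowers A : Subgroup SL2) : Set SL2)) := by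
  classical
  obtain ⟨N, hNdef⟩ : ∃ N : Subgroup SL2,
      N = Subgroup.normalizer ((Subgroup.zpowers A : Subgroup SL2) : Set SL2) := ⟨_, rfl⟩
  have hle : Subgroup.zpowers A ≤ N := by
    rw [hNdef]
    exact Subgroup.le_normalizer
  have hTn : ((Subgroup.zpowers A).subgroupOf N).Normal := by
    rw [hNdef]
    exact Subgroup.normal_in_normalizer
  rw [← hNdef] at hNc ⊢
  have hcardT : Nat.card ((Subgroup.zpowers A).subgroupOf N) = 2 * m := by
    rw [Nat.card_congr (Subgroup.subgroupOfEquivOfLe hle).toEquiv, Nat.card_zpowers, hoA]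
  have hq2 : Nat.card (N ⧸ (Subgroup.zpowers A).subgroupOf N) = 2 := by
    have := Subgroup.card_eq_card_quotient_mul_card_subgroup ((Subgroup.zpowers A).subgroupOf N)
    rw [hNc, hcardT] at this
    have hpos : 0 < 2 * m := by omega
    apply Nat.eq_of_mul_eq_mul_right hpos
    rw [← this]
    ring
  haveI : Fact (Nat.Prime 2) := ⟨Nat.prime_two⟩
  haveI : IsCyclic (N ⧸ (Subgroup.zpowers A).subgroupOf N) := isCyclic_of_prime_card hq2
  haveI : Group.IsSolvable (N ⧸ (Subgroup.zpowers A).subgroupOf N) := by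
    obtain ⟨g, hg⟩ := IsCyclic.exists_generator (α := N ⧸ (Subgroup.zpowers A).subgroupOf N)
    apply Group.isSolvable_of_comm
    intro x y
    obtain ⟨i, rfl⟩ := Subgroup.mem_zpowers_iff.mp (hg x)
    obtain ⟨j, rfl⟩ := Subgroup.mem_zpowers_iff.mp (hg y)
    exact zpow_mul_comm g i j
  haveI : Group.IsSolvable ((Subgroup.zpowers A).subgroupOf N) := by
    apply Group.isSolvable_of_comm
    intro x y
    have hx := x.2
    have hy := y.2
    rw [Subgroup.mem_subgroupOf] at hx hy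
    obtain ⟨i, hi⟩ := Subgroup.mem_zpowers_iff.mp hx
    obtain ⟨j, hj⟩ := Subgroup.mem_zpowers_iff.mp hy
    apply Subtype.ext
    apply Subtype.ext
    simp only [Subgroup.coe_mul]
    rw [← hi, ← hj]
    exact zpow_mul_comm A i j
  exact Group.isSolvable_of_ker_le_range ((Subgroup.zpowers A).subgroupOf N).subtype
    (QuotientGroup.mk' ((Subgroup.zpowers A).subgroupOf N))
    (by rw [QuotientGroup.ker_mk', Subgroup.range_subtype])

theorem hall_of_torus [Fintype F] (hodd : Odd (Fintype.card F))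
    (h : (3 ∣ Fintype.card F - 1 ∧ Fintype.card F % 4 = 1) ∨
      (3 ∣ Fintype.card F + 1 ∧ Fintype.card F % 4 = 3)) :
    ∃ H : Subgroup PSL2, 2 * Nat.card H =
      2 ^ (Fintype.card F ^ 2 - 1).factorization 2 * 3 ^ (Fintype.card F ^ 2 - 1).factorization 3 := by
  classical
  have h2F := two_ne_zero_of_odd hodd
  obtain ⟨A, m, c, hτ, hself, hoA, hmev, hcodd, hcard, hcase⟩ := exists_torus_data2 hodd
  have hm0 : m ≠ 0 := by
    rintro rfl
    have := orderOf_pos A
    omega
  have hm2 : 2 ≤ m := by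
    obtain ⟨j, hj⟩ := hmev
    omega
  obtain ⟨hNc, hNsq, -⟩ := normalizer_structure hodd A hτ hself m hoA hm2
  obtain ⟨t, hqm, ht2, ht3⟩ : ∃ t : ℕ, Fintype.card F ^ 2 - 1 = 2 * m * (2 * t) ∧
      ¬ 2 ∣ t ∧ ¬ 3 ∣ t := by
    rcases hcase with ⟨h4, hm⟩ | ⟨h4, hm⟩
    · have h3 : 3 ∣ Fintype.card F - 1 := by
        rcases h with ⟨h3, -⟩ | ⟨-, h4'⟩
        · exact h3
        · omega
      refine ⟨m + 1, ?_, ?_, ?_⟩
      · have hq : Fintype.card F = 2 * m + 1 := by omega
        rw [hq]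
        have : (2 * m + 1) ^ 2 = 2 * m * (2 * (m + 1)) + 1 := by ring
        omega
      · obtain ⟨j, hj⟩ := hmev
        omega
      · omega
    · have h3 : 3 ∣ Fintype.card F + 1 := by
        rcases h with ⟨-, h4'⟩ | ⟨h3, -⟩
        · omega
        · exact h3
      refine ⟨m - 1, ?_, ?_, ?_⟩
      · obtain ⟨m', rfl⟩ : ∃ m', m = m' + 1 := ⟨m - 1, by omega⟩
        have hq : Fintype.card F = 2 * m' + 1 := by omega
        rw [hq]
        have : (2 * m' + 1) ^ 2 = 2 * (m' + 1) * (2 * m') + 1 := by ring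
        simp only [Nat.add_sub_cancel]
        omega
      · obtain ⟨j, hj⟩ := hmev
        omega
      · omega
  obtain ⟨a, b, k, hk, hk2, hk3⟩ := exists_part23 (2 * m) (by omega)
  have hR := arith4 _ m t a b k hqm ht2 ht3 hk hk2 hk3
  haveI := solvable_normalizer A m hm0 hoA hNc
  obtain ⟨N, hNdef⟩ : ∃ N : Subgroup SL2,
      N = Subgroup.normalizer ((Subgroup.zpowers A : Subgroup SL2) : Set SL2) := ⟨_, rfl⟩
  rw [← hNdef] at hNc hNsq
  have hsol : Group.IsSolvable N := by
    rw [hNdef]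
    infer_instance
  have hcop : Nat.Coprime (2 * (2 ^ a * 3 ^ b)) k := by
    have c2 : Nat.Coprime 2 k := (Nat.Prime.coprime_iff_not_dvd Nat.prime_two).mpr hk2
    have c3 : Nat.Coprime 3 k := (Nat.Prime.coprime_iff_not_dvd Nat.prime_three).mpr hk3
    exact Nat.Coprime.mul_left c2 (Nat.Coprime.mul_left (Nat.Coprime.pow_left a c2)
      (Nat.Coprime.pow_left b c3))
  obtain ⟨K, hK⟩ := Cfsg.Agent.Helper1.hall_exists (G := N) (2 * (2 ^ a * 3 ^ b)) k (by
    rw [hNc]
    linarith [hk]) hcop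
  obtain ⟨Kt, hKt⟩ : ∃ Kt : Subgroup SL2, Kt = K.map N.subtype := ⟨_, rfl⟩
  have hKtc : Nat.card Kt = 2 * (2 ^ a * 3 ^ b) := by
    rw [hKt, Subgroup.card_map_of_injective N.subtype_injective, hK]
  have hneg : negOne ∈ Kt := by
    haveI : Fact (Nat.Prime 2) := ⟨Nat.prime_two⟩
    obtain ⟨x, hx⟩ := exists_prime_orderOf_dvd_card' (G := Kt) 2 (by rw [hKtc]; exact dvd_mul_right _ _)
    have hx1 : (x : SL2) ≠ 1 := by
      intro h1
      have : x = 1 := Subtype.ext h1
      rw [this, orderOf_one] at hx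
      omega
    have hxx : (x : SL2) * (x : SL2) = 1 := by
      have := pow_orderOf_eq_one x
      rw [hx, pow_two] at this
      have := congrArg Subtype.val this
      simpa using this
    rcases sq_one h2F _ hxx with h1 | h1
    · exact absurd h1 hx1
    · rw [← h1]
      exact x.2
  have hcen : Subgroup.center SL2 ≤ Kt := by
    intro z hz
    rcases sq_one h2F z (center_sq2 z hz) with h1 | h1
    · rw [h1]
      exact Kt.one_mem
    · rw [h1]
      exact hneg
  refine ⟨Kt.map (QuotientGroup.mk' (Subgroup.center SL2)), ?_⟩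
  have h1 := card_comap hodd (Kt.map (QuotientGroup.mk' (Subgroup.center SL2)))
  rw [Subgroup.comap_map_eq, QuotientGroup.ker_mk', sup_eq_left.mpr hcen, hKtc] at h1
  rw [hR, ← h1]

end Cfsg.Agent.Helper14.HallD
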