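import Mathlib
import Cfsg.Agent.Helper14.SubC

set_option autoImplicit false

namespace Cfsg.Agent.Helper14.SubG

open Cfsg.Agent.Helper14.SubA Cfsg.Agent.Helper14.SubB Cfsg.Agent.Helper14.SubC

variable {F K : Type*} [Field F] [Field K]

/-- a field with `q` elements embeds into a field with `q ^ 2` elements. -/
theorem exists_hom [Fintype F] [Fintype K] (q : ℕ) (hK : Fintype.card K = q)
    (hF : Fintype.card F = q ^ 2) :
    ∃ (p n : ℕ), p.Prime ∧ q = p ^ n ∧ CharP F p ∧ Nonempty (K →+* F) := by
  obtain ⟨p, hp⟩ := CharP.exists K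
  haveI := hp
  have hpp : p.Prime := CharP.char_is_prime K p
  haveI : Fact p.Prime := ⟨hpp⟩
  obtain ⟨n, -, hn⟩ := FiniteField.card K p
  obtain ⟨p', hp'⟩ := CharP.exists F
  haveI := hp'
  have hpp' : p'.Prime := CharP.char_is_prime F p'
  obtain ⟨m, -, hm⟩ := FiniteField.card F p'
  have hpeq : p' = p := by
    have h1 : p' ∣ q ^ 2 := by
      rw [← hF, hm]
      exact dvd_pow_self p' m.pos.ne'
    rw [← hK, hn, ← pow_mul] at h1
    exact (Nat.prime_dvd_prime_iff_eq hpp' hpp).mp (hpp'.dvd_of_dvd_pow h1)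
  subst hpeq
  letI : Algebra (ZMod p') K := ZMod.algebra K p'
  letI : Algebra (ZMod p') F := ZMod.algebra F p'
  have h1 := FiniteField.pow_finrank_eq_card p' K
  have h2 := FiniteField.pow_finrank_eq_card p' F
  rw [hn] at h1
  rw [hF, ← hK, hn, ← pow_mul] at h2
  have e1 := Nat.pow_right_injective hpp.two_le h1
  have e2 := Nat.pow_right_injective hpp.two_le h2
  obtain ⟨f⟩ := FiniteField.nonempty_algHom_of_finrank_dvd (F := ZMod p') (K := K) (L := F)
    (by rw [e1, e2]; exact dvd_mul_right _ _)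
  exact ⟨p', n, hpp, by rw [← hK, hn], inferInstance, ⟨f.toRingHom⟩⟩

theorem qf_of [Fintype F] (q p n : ℕ) [Fact p.Prime] [CharP F p] (hq : q = p ^ n)
    (hF : Fintype.card F = q ^ 2) (hodd : Odd q) (h2 : (2 : F) ≠ 0) : QF F q :=
  { add := by
      intro x y
      rw [hq]
      exact add_pow_char_pow x y p n
    invol := by
      intro t
      rw [← pow_mul, ← pow_two, ← hF]
      exact FiniteField.pow_card t
    odd := hodd
    two := h2 }

/-- elements fixed by `x ↦ x ^ q` are squares. -/
theorem exists_sqrt [Fintype F] (q : ℕ) (hodd : Odd q) (hF : Fintype.card F = q ^ 2)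
    (h2 : (2 : F) ≠ 0) (x : F) (hx0 : x ≠ 0) (hx : x ^ q = x) : ∃ s : F, s * s = x := by
  have hchar : ringChar F ≠ 2 := by
    intro h
    apply h2
    have := CharP.cast_eq_zero F (ringChar F)
    rw [h] at this
    exact_mod_cast this
  have hsq : IsSquare x := by
    apply (FiniteField.isSquare_iff hchar hx0).mpr
    obtain ⟨m, hm⟩ := hodd
    have hx1 : x ^ (q - 1) = 1 := by
      have h3 : x ^ (q - 1) * x = x := by
        rw [← pow_succ]
        have : q - 1 + 1 = q := by omega
        rw [this]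
        exact hx
      exact mul_eq_right₀ hx0 |>.mp h3
    obtain ⟨P, hP⟩ : ∃ P : ℕ, P = m * (m + 1) := ⟨_, rfl⟩
    have h4 : Fintype.card F / 2 = (q - 1) * (m + 1) := by
      have e1 : q ^ 2 = 4 * P + 1 := by
        rw [hm, hP]
        ring
      have e2 : (q - 1) * (m + 1) = 2 * P := by
        have : q - 1 = 2 * m := by omega
        rw [this, hP]
        ring
      rw [hF, e1, e2]
      omega
    rw [h4, pow_mul, hx1, one_pow]
  obtain ⟨s, hs⟩ := hsq
  exact ⟨s, hs.symm⟩

/-- the fixed points of `x ↦ x ^ q` lie in the image of the small field. -/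
theorem mem_range_of_pow [Fintype F] [Fintype K] (ι : K →+* F) (q : ℕ) (hK : Fintype.card K = q)
    (hq : 1 < q) (x : F) (hx : x ^ q = x) : ∃ a : K, ι a = x := by
  classical
  obtain ⟨P, hPdef⟩ : ∃ P : Polynomial F, P = Polynomial.X ^ q - Polynomial.X := ⟨_, rfl⟩
  have hP0 : P ≠ 0 := by
    rw [hPdef]
    exact FiniteField.X_pow_card_sub_X_ne_zero F hq
  have hdeg : P.natDegree = q := by
    rw [hPdef]
    exact FiniteField.X_pow_card_sub_X_natDegree_eq F hq
  have hroot : ∀ y : F, y ^ q = y → y ∈ P.roots.toFinset := by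
    intro y hy
    rw [Multiset.mem_toFinset, Polynomial.mem_roots hP0, Polynomial.IsRoot.def, hPdef]
    simp [hy]
  have hsub : Finset.univ.image ι ⊆ P.roots.toFinset := by
    intro y hy
    obtain ⟨a, -, rfl⟩ := Finset.mem_image.mp hy
    apply hroot
    rw [← map_pow, ← hK, FiniteField.pow_card]
  have hcard : P.roots.toFinset.card ≤ (Finset.univ.image ι).card := by
    rw [Finset.card_image_of_injective _ ι.injective, Finset.card_univ, hK]
    calc P.roots.toFinset.card ≤ P.roots.card := Multiset.toFinset_card_le _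
      _ ≤ P.natDegree := Polynomial.card_roots' P
      _ = q := hdeg
  have heq := Finset.eq_of_subset_of_card_le hsub hcard
  have hmem := hroot x hx
  rw [← heq] at hmem
  obtain ⟨a, -, ha⟩ := Finset.mem_image.mp hmem
  exact ⟨a, ha⟩

end Cfsg.Agent.Helper14.SubG
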