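import Mathlib
import Cfsg.Agent.Helper14.SubG

set_option autoImplicit false

namespace Cfsg.Agent.Helper14.SubH

open Cfsg.Agent.Helper14.SubA Cfsg.Agent.Helper14.SubB Cfsg.Agent.Helper14.SubC
  Cfsg.Agent.Helper14.SubG

variable {F K : Type*} [Field F] [Field K]

local notation "SL2" => Matrix.SpecialLinearGroup (Fin 2) F
local notation "M2" => Matrix (Fin 2) (Fin 2) F
local notation "PSL2" => Matrix.ProjectiveSpecialLinearGroup (Fin 2) F

/-- the map `GL₂(K) → PGL₂(F)`. -/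
def piHom (ι : K →+* F) : GL (Fin 2) K →* Matrix.ProjGenLinGroup (Fin 2) F :=
  Matrix.ProjGenLinGroup.mk.comp (Matrix.GeneralLinearGroup.map ι)

/-- the image of `PGL₂(K)` inside `PSL₂(F)`. -/
def Hsub (ι : K →+* F) : Subgroup PSL2 :=
  (piHom ι).range.comap Matrix.ProjectiveSpecialLinearGroup.toPGL

theorem mem_Hsub (ι : K →+* F) (m : SL2) :
    (QuotientGroup.mk m : PSL2) ∈ Hsub ι ↔
      ∃ (g : GL (Fin 2) K) (u : Fˣ), ∀ i j, ι (g i j) * (u : F) = (m : M2) i j := by
  unfold Hsub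
  rw [Subgroup.mem_comap, MonoidHom.mem_range]
  constructor
  · rintro ⟨g, hg⟩
    have h1 : Matrix.ProjGenLinGroup.mk (Matrix.GeneralLinearGroup.map ι g) =
        Matrix.ProjGenLinGroup.mk (Matrix.SpecialLinearGroup.toGL m) := hg
    rw [Matrix.ProjGenLinGroup.mk_eq_mk_iff] at h1
    obtain ⟨u, hu⟩ := h1
    refine ⟨g, u, fun i j => ?_⟩
    have h2 := congrArg (fun x : GL (Fin 2) F => (x : M2) i j) hu
    simp at h2
    exact h2
  · rintro ⟨g, u, h⟩
    refine ⟨g, ?_⟩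
    show Matrix.ProjGenLinGroup.mk (Matrix.GeneralLinearGroup.map ι g) =
        Matrix.ProjGenLinGroup.mk (Matrix.SpecialLinearGroup.toGL m)
    rw [Matrix.ProjGenLinGroup.mk_eq_mk_iff]
    refine ⟨u, ?_⟩
    apply Units.ext
    ext i j
    simp
    exact h i j

theorem piHom_ker (ι : K →+* F) : (piHom ι).ker = Subgroup.center (GL (Fin 2) K) := by
  ext g
  rw [MonoidHom.mem_ker]
  show Matrix.ProjGenLinGroup.mk (Matrix.GeneralLinearGroup.map ι g) = 1 ↔ _
  rw [Matrix.ProjGenLinGroup.mk_eq_one,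
    Matrix.GeneralLinearGroup.mem_center_iff_val_mem_range_scalar,
    Matrix.GeneralLinearGroup.mem_center_iff_val_mem_range_scalar]
  constructor
  · rintro ⟨a, ha⟩
    have h01 := congrFun (congrFun ha 0) 1
    have h10 := congrFun (congrFun ha 1) 0
    have h00 := congrFun (congrFun ha 0) 0
    have h11 := congrFun (congrFun ha 1) 1
    simp at h01 h10 h00 h11
    have e01 : g 0 1 = 0 := by
      apply ι.injective
      rw [map_zero]
      exact h01.symm
    have e10 : g 1 0 = 0 := by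
      apply ι.injective
      rw [map_zero]
      exact h10.symm
    have e11 : g 1 1 = g 0 0 := by
      apply ι.injective
      rw [← h00, ← h11]
    refine ⟨g 0 0, ?_⟩
    ext i j
    fin_cases i <;> fin_cases j <;> simp [e01, e10, e11]
  · rintro ⟨a, ha⟩
    refine ⟨ι a, ?_⟩
    ext i j
    have h := congrFun (congrFun ha i) j
    fin_cases i <;> fin_cases j <;> simp at h ⊢ <;> rw [← h] <;> simp

theorem piHom_range_le [Fintype F] (ι : K →+* F) (q : ℕ) (hodd : Odd q)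
    (hF : Fintype.card F = q ^ 2) (h2 : (2 : F) ≠ 0) (hfix : ∀ a : K, (ι a) ^ q = ι a) :
    (piHom ι).range ≤
      (Matrix.ProjectiveSpecialLinearGroup.toPGL :
        PSL2 →* Matrix.ProjGenLinGroup (Fin 2) F).range := by
  rintro _ ⟨g, rfl⟩
  obtain ⟨A, hA⟩ : ∃ A : M2, A = ((Matrix.GeneralLinearGroup.map ι g : GL (Fin 2) F) : M2) :=
    ⟨_, rfl⟩
  obtain ⟨d, hd⟩ : ∃ d : F, d = A.det := ⟨_, rfl⟩
  have hAm : A = ι.mapMatrix (g : Matrix (Fin 2) (Fin 2) K) := by
    rw [hA]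
    rfl
  have hdι : d = ι ((g : Matrix (Fin 2) (Fin 2) K).det) := by
    rw [hd, hAm, RingHom.map_det]
  have hd0 : d ≠ 0 := by
    rw [hdι]
    intro h
    rw [map_eq_zero] at h
    have hu : IsUnit (g : Matrix (Fin 2) (Fin 2) K).det :=
      (Matrix.isUnit_iff_isUnit_det _).mp g.isUnit
    exact hu.ne_zero h
  have hdq : d ^ q = d := by
    rw [hdι]
    exact hfix _
  obtain ⟨s, hs⟩ := exists_sqrt q hodd hF h2 d hd0 hdq
  have hs0 : s ≠ 0 := by
    intro h
    rw [h, mul_zero] at hs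
    exact hd0 hs.symm
  have hdet : (s⁻¹ • A).det = 1 := by
    rw [Matrix.det_smul, Fintype.card_fin, ← hd, ← hs]
    field_simp
  obtain ⟨m, hm⟩ : ∃ m : SL2, (m : M2) = s⁻¹ • A := ⟨⟨s⁻¹ • A, hdet⟩, rfl⟩
  refine ⟨QuotientGroup.mk m, ?_⟩
  show Matrix.ProjGenLinGroup.mk (Matrix.SpecialLinearGroup.toGL m) =
      Matrix.ProjGenLinGroup.mk (Matrix.GeneralLinearGroup.map ι g)
  rw [Matrix.ProjGenLinGroup.mk_eq_mk_iff]
  refine ⟨Units.mk0 s hs0, ?_⟩
  apply Units.ext
  ext i j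
  have hAij : A i j = ι (g i j) := by
    rw [hA]
    rfl
  simp
  rw [hm, Matrix.smul_apply, hAij, smul_eq_mul]
  field_simp

theorem Hsub_iso (ι : K →+* F)
    (hle : (piHom ι).range ≤
      (Matrix.ProjectiveSpecialLinearGroup.toPGL :
        PSL2 →* Matrix.ProjGenLinGroup (Fin 2) F).range) :
    Nonempty (Hsub ι ≃* Matrix.ProjGenLinGroup (Fin 2) K) := by
  have e1 := Subgroup.equivMapOfInjective (Hsub ι) Matrix.ProjectiveSpecialLinearGroup.toPGL
    Matrix.ProjectiveSpecialLinearGroup.toPGL_injective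
  have hmap : (Hsub ι).map Matrix.ProjectiveSpecialLinearGroup.toPGL = (piHom ι).range :=
    Subgroup.map_comap_eq_self hle
  have e2 := MulEquiv.subgroupCongr hmap
  have e3 := (QuotientGroup.quotientKerEquivRange (piHom ι)).symm
  have e4 := QuotientGroup.quotientMulEquivOfEq (piHom_ker ι)
  exact ⟨((e1.trans e2).trans e3).trans e4⟩

end Cfsg.Agent.Helper14.SubH
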